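import Cfsg.Agent.WA.DLoc6

/-! The local argument: no fusion in `⟨d⟩` modulo `⟨x⟩`. -/

set_option autoImplicit false
set_option linter.unusedSectionVars false

namespace Cfsg.Agent.WA.Loc

open Cfsg Subgroup Cfsg.Agent.GT

universe u

variable {G : Type u} [Group G] [Finite G] {l a b : ℕ} {d x z e g : G}

theorem H1.al (h : H1 l a d x z b) (he : e ∈ zpowers d) (hg : g * x * g⁻¹ ∈ zpowers x)
    (m : g * e * g⁻¹ ∈ zpowers e ⊔ zpowers x) : g * e * g⁻¹ * e⁻¹ ∈ zpowers x := by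
  haveI := Fact.mk h.pr
  have xe : Commute x e := (B84H.zc h.xd.symm he).symm
  have ze : Commute z e := (B84H.zc h.zd.symm he).symm
  obtain ⟨c, i, e1⟩ := (mem2 xe).1 m
  obtain ⟨β, e2⟩ := mem_zp.1 hg
  suffices k : e ^ c = e by
    rw [e1, k, ← (xe.pow_left i).eq, mul_inv_cancel_right]; exact pow_mem (mem_zpowers x) i
  by_cases i0 : (i : ZMod l) = 0
  · rw [pow_zm h.xl (j := 0) (by simpa using i0), pow_zero, mul_one] at e1
    exact e1 ▸ h.f1 e he g (e1 ▸ pow_mem (mem_zpowers e) c)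
  have a1 : g * z * x * (g * z)⁻¹ = x ^ (β * b) := by
    rw [show g * z * x * (g * z)⁻¹ = g * (z * x * z⁻¹) * g⁻¹ by group, h.zx, ← conj_pow, e2, pow_mul]
  have a2 : z * g * x * (z * g)⁻¹ = x ^ (β * b) := by
    rw [show z * g * x * (z * g)⁻¹ = z * (g * x * g⁻¹) * z⁻¹ by group, e2, ← conj_pow, h.zx, mul_comm β, pow_mul]
  have tx : Commute (z * g * z⁻¹ * g⁻¹) x := by
    have : x ^ (β * b) ∈ C1[z * g * z⁻¹ * g⁻¹] := mem_cent1.2 (Commute.symm (TT.commute_iff_conj.2 (by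
      nth_rw 1 [← a1]
      rw [← a2]; group)))
    rcases mem_or h.pr h.xl this with k | k
    · exact Commute.symm (mem_cent1.1 k)
    · rw [pow_zm h.xl (j := 0) (by simpa using k), pow_zero] at a1
      exact (h.x1 (conj_eq_one_iff.1 a1)).elim
  have mδ : x ^ (i * b) * (x ^ i)⁻¹ ∈ zpowers x :=
    mul_mem (pow_mem (mem_zpowers x) _) (inv_mem (pow_mem (mem_zpowers x) _))
  have a3 : z * g * z⁻¹ * g⁻¹ * (g * e * g⁻¹) * (z * g * z⁻¹ * g⁻¹)⁻¹ = x ^ (i * b) * (x ^ i)⁻¹ * (g * e * g⁻¹) := by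
    have ze' : z⁻¹ * e * z = e := by rw [ze.inv_left.eq]; group
    rw [show z * g * z⁻¹ * g⁻¹ * (g * e * g⁻¹) * (z * g * z⁻¹ * g⁻¹)⁻¹ = z * (g * (z⁻¹ * e * z) * g⁻¹) * z⁻¹ by group,
      ze', e1, ← conj_mul, ← conj_pow (b := x), h.zx, TT.commute_iff_conj.1 (ze.pow_right c), ← pow_mul, mul_comm b,
      ← (xe.pow_pow _ _).eq, ← (xe.pow_pow _ _).eq]
    group
  obtain ⟨n, hn⟩ := mem_zp.1 (eq_zpowers_of_card_prime (by rw [Nat.card_zpowers, h.ox]; exact h.pr) mδ (fun e =>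
    h.x1 (eq_one_zm h.pr h.xl (mul_inv_eq_one.1 e) fun e => h.b1 (mul_left_cancel₀ i0 (by simpa using e)))) ▸
    inv_mem (pow_mem (mem_zpowers x) i))
  have a4 := tr_pow (B84H.zc tx.symm mδ).symm a3 n
  have a5 : (z * g * z⁻¹ * g⁻¹) ^ n * g * e * ((z * g * z⁻¹ * g⁻¹) ^ n * g)⁻¹ = e ^ c := by
    rw [show (z * g * z⁻¹ * g⁻¹) ^ n * g * e * ((z * g * z⁻¹ * g⁻¹) ^ n * g)⁻¹ =
      (z * g * z⁻¹ * g⁻¹) ^ n * (g * e * g⁻¹) * ((z * g * z⁻¹ * g⁻¹) ^ n)⁻¹ by group, a4, ← hn, e1, ← (xe.pow_pow _ _).eq,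
      inv_mul_cancel_left]
  exact a5 ▸ h.f1 e he _ (a5 ▸ pow_mem (mem_zpowers e) c)

end Cfsg.Agent.WA.Loc
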