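import Cfsg.Agent.WA.JT2

/-! The linear character of `L D`. -/

set_option autoImplicit false
set_option linter.unusedSectionVars false

namespace Cfsg.Agent.WA.T6

open Cfsg Subgroup Cfsg.Agent.GT Cfsg.Agent.GW

universe u

variable {G : Type u} [Group G] [Finite G] {S L D K0 : Subgroup G} {t g : G}

theorem lam (j : JR' S t L D) (ne : D ≠ ⊥) :
    ∃ lam : ↥(L ⊔ D) →* ℂˣ, lam ≠ 1 ∧ ∀ l : ↥(L ⊔ D), (l : G) ∈ L → lam l = 1 := by
  have le : L ⊔ D ≤ C1[t] := sup_le j.le j.Dt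
  have : (L.subgroupOf (L ⊔ D)).Normal := (normal_subgroupOf_iff_le_normalizer le_sup_left).2 (le.trans j.norm)
  let _ : CommGroup (↥(L ⊔ D) ⧸ L.subgroupOf (L ⊔ D)) :=
    { (inferInstance : Group _) with
      mul_comm := fun a b => by
        obtain ⟨a, rfl⟩ := QuotientGroup.mk_surjective a
        obtain ⟨b, rfl⟩ := QuotientGroup.mk_surjective b
        rw [← QuotientGroup.mk_mul, ← QuotientGroup.mk_mul, QuotientGroup.eq]
        simpa [mem_subgroupOf, mul_assoc] using j.comm_L (inv_mem (le b.2)) (inv_mem (le a.2)) }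
  obtain ⟨d, hd, d1⟩ := (bot_or_exists_ne_one D).resolve_left ne
  obtain ⟨φ, e⟩ := CommGroup.exists_apply_ne_one_of_hasEnoughRootsOfUnity (↥(L ⊔ D) ⧸ L.subgroupOf (L ⊔ D)) ℂ
    (a := QuotientGroup.mk ⟨d, mem_sup_right hd⟩) fun e =>
      d1 (mem_bot.1 (j.inf ▸ (⟨hd, (QuotientGroup.eq_one_iff (N := L.subgroupOf (L ⊔ D)) _).1 e⟩ : d ∈ D ⊓ L)))
  exact ⟨φ.comp (QuotientGroup.mk' _), fun k => e (DFunLike.congr_fun k _), fun l m => by
    rw [MonoidHom.comp_apply, QuotientGroup.mk'_apply, (QuotientGroup.eq_one_iff (N := L.subgroupOf (L ⊔ D)) l).2 m,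
      map_one]⟩

theorem lam_conj (j : JR' S t L D) {lam : ↥(L ⊔ D) →* ℂˣ} (h : ∀ l : ↥(L ⊔ D), (l : G) ∈ L → lam l = 1)
    (le : K0 ≤ L) (gS : g ∈ N[S]) (gK : g ∈ N[K0]) (DK : D ≤ N[K0]) {l l' : ↥(L ⊔ D)} (hl : (l : G) ∈ K0 ⊔ D)
    (e : (l' : G) = g * l * g⁻¹) : lam l' = lam l := by
  obtain ⟨k, hk, d, hd, r⟩ := (mem_sup_of_le_norm' DK).1 hl
  rw [← mul_inv_eq_one, ← map_inv, ← map_mul]
  refine h _ ?_
  rw [coe_mul, coe_inv, e, r, ← conj_mul, mem_cent1.1 (j.NS hd gS), mul_inv_cancel_right, mul_inv_rev,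
    mul_assoc, mul_inv_cancel_left]
  exact mul_mem (le (conj_mem_of_mem_norm gK hk)) (inv_mem (le hk))

end Cfsg.Agent.WA.T6
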