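import Cfsg.Agent.WA.JW2

/-! A twisted block contains a linear character. -/

set_option autoImplicit false
set_option linter.unusedSectionVars false
set_option linter.unusedVariables false

namespace Cfsg.Agent.WA.JW

open Cfsg Subgroup Cfsg.Agent.GT Cfsg.Agent.Char Cfsg.Agent.BS Cfsg.Agent.B84C Cfsg.Agent.B84H Cfsg.Agent.Cls
open scoped Classical ComplexConjugate
open JE (La idx0 dvd_val three0 sum_odd deg8' n4)

universe u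

variable {G : Type u} [Group G] [Fintype G] {t u g w x : G} {K K0 : Subgroup G} {Q : ℤ} {α β γ δ Φ : G → ℂ}
  {Θ Θ0 : Fin 3 → G → ℂ} {Ξ : Fin 4 → G → ℂ}

set_option maxHeartbeats 800000 in
theorem tri {v : Fin 3 → G → ℂ} (vv : ∀ i, IsGeneralizedCharacter G (v i))
    (gr : ∀ i j, ⟪v i, v j⟫ = if i = j then 3 else 1) (vd : ∀ i j, v i 1 = v j 1) :
    (∃ (a : G → ℂ) (b : Fin 3 → Bool → G → ℂ), IsSIrr G a ∧ (∀ i e, IsSIrr G (b i e)) ∧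
      (∀ i, v i = a + b i true + b i false) ∧ (∀ i e, ⟪a, b i e⟫ = 0) ∧
        ∀ i e j e', (i, e) ≠ (j, e') → ⟪b i e, b j e'⟫ = 0) ∨
    ∃ a c : Fin 3 → G → ℂ, (∀ i, IsSIrr G (a i)) ∧ (∀ i, IsSIrr G (c i)) ∧ (∀ i, v i = a (i + 1) + a (i + 2) + c i) ∧
      (∀ i j, i ≠ j → ⟪a i, a j⟫ = 0) ∧ (∀ i j, ⟪a i, c j⟫ = 0) ∧ ∀ i j, i ≠ j → ⟪c i, c j⟫ = 0 := by
  have n3 : ∀ i, nsq (v i) = 3 := fun i => nsq_eq_of_ci (by simpa using gr i i)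
  obtain ⟨X, Y, Z, hX, hY, hZ, xy, xz, yz, e0, x1, y1, z1⟩ : ∃ X Y Z, IsSIrr G X ∧ IsSIrr G Y ∧ IsSIrr G Z ∧
      ⟪X, Y⟫ = 0 ∧ ⟪X, Z⟫ = 0 ∧ ⟪Y, Z⟫ = 0 ∧ v 0 = X + Y + Z ∧ ⟪v 1, X⟫ = 1 ∧ ⟪v 1, Y⟫ = 0 ∧ ⟪v 1, Z⟫ = 0 := by
    obtain ⟨X, Y, Z, hX, hY, hZ, xy, xz, yz, e⟩ := GW.Ch.exists_three (vv 0) (by simpa using gr 0 0)
    rcases one_hot hX hY hZ xy xz yz (vv 1) (by simpa using gr 1 1) (by simpa [← e] using gr 1 0)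
      (by rw [vd 1 0, e]; rfl) with a | a | a
    · exact ⟨X, Y, Z, hX, hY, hZ, xy, xz, yz, e, a⟩
    · exact ⟨Y, X, Z, hY, hX, hZ, ci_eq_zero_symm xy, yz, xz, by rw [e]; abel, a.2.1, a.1, a.2.2⟩
    · exact ⟨Z, X, Y, hZ, hX, hY, ci_eq_zero_symm xz, ci_eq_zero_symm yz, xy, by rw [e]; abel, a.2.2, a.1, a.2.1⟩
  have pz : ∀ {i A B C W}, IsSIrr G B → IsSIrr G C → IsSIrr G W → ⟪B, C⟫ = 0 → v i = A + (B + C) → ⟪A, W⟫ = 0 →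
      ⟪v i, W⟫ = 0 → ⟪W, B⟫ = 0 ∧ ⟪W, C⟫ = 0 := fun hB hC hW o e a b =>
    pair_zero hW hB hC o (by
      rw [e, ci_add_left, a, zero_add] at b
      rw [← ci_add_right]; exact ci_eq_zero_symm b)
  obtain ⟨Y', Z', hY', hZ', yz', xy', xz', e1⟩ := three_dec (vv 1) (n3 1) hX x1
  have s := @ci_eq_zero_symm G _ _
  have main : ∀ {Y Z Y' Z'}, IsSIrr G Y → IsSIrr G Z → IsSIrr G Y' → IsSIrr G Z' → ⟪X, Y⟫ = 0 → ⟪X, Z⟫ = 0 →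
      ⟪Y, Z⟫ = 0 → ⟪Y', X⟫ = 0 → ⟪Z', X⟫ = 0 → ⟪Y', Z'⟫ = 0 → v 0 = X + Y + Z → v 1 = X + (Y' + Z') →
      ⟪v 1, Y⟫ = 0 → ⟪v 1, Z⟫ = 0 → ⟪v 2, X⟫ = 0 → ⟪v 2, Y⟫ = 1 → ⟪v 2, Z⟫ = 0 → ⟪v 2, Y'⟫ = 1 → ⟪v 2, Z'⟫ = 0 →
      ∃ a c : Fin 3 → G → ℂ, (∀ i, IsSIrr G (a i)) ∧ (∀ i, IsSIrr G (c i)) ∧
        (∀ i, v i = a (i + 1) + a (i + 2) + c i) ∧ (∀ i j, i ≠ j → ⟪a i, a j⟫ = 0) ∧ (∀ i j, ⟪a i, c j⟫ = 0) ∧
        ∀ i j, i ≠ j → ⟪c i, c j⟫ = 0 := by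
    intro Y Z Y' Z' hY hZ hY' hZ' xy xz yz xy' xz' yz' e0 e1 y1 z1 x2 y2 z2 y2' z2'
    obtain ⟨a1, a2⟩ := pz hY' hZ' hY yz' e1 xy y1
    obtain ⟨a3, a4⟩ := pz hY' hZ' hZ yz' e1 xz z1
    have hF : IsSIrr G (v 2 - Y - Y') := ((vv 2).sub hY.virt).sub hY'.virt |>.isSIrr_of_ci_self (by
      simp only [ci_sub_left, ci_sub_right, gr, y2, y2', hY.virt.ci_comm (vv 2), hY'.virt.ci_comm (vv 2),
        hY.ci_self, hY'.ci_self, a1, s a1]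
      norm_num)
    set F := v 2 - Y - Y' with eF
    have e2 : v 2 = Y' + Y + F := by rw [eF]; abel
    have f1 : ⟪F, X⟫ = 0 := by simp [eF, ci_sub_left, x2, s xy, xy']
    have f2 : ⟪F, Y⟫ = 0 := by simp [eF, ci_sub_left, y2, hY.ci_self, s a1]
    have f3 : ⟪F, Z⟫ = 0 := by simp [eF, ci_sub_left, z2, yz, s a3]
    have f4 : ⟪F, Y'⟫ = 0 := by simp [eF, ci_sub_left, y2', hY'.ci_self, a1]
    have f5 : ⟪F, Z'⟫ = 0 := by simp [eF, ci_sub_left, z2', yz', a2]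
    clear_value F
    refine ⟨![Y', Y, X], ![Z, Z', F], fun i => ?_, fun i => ?_, fun i => ?_, fun i j n => ?_, fun i j => ?_,
      fun i j n => ?_⟩
    · fin_cases i <;> assumption
    · fin_cases i <;> assumption
    · fin_cases i
      · exact e0.trans (by simp; abel)
      · exact e1.trans (by simp; abel)
      · exact e2.trans (by simp)
    · fin_cases i <;> fin_cases j <;> first | exact (n rfl).elim | assumption | exact s ‹_›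
    · fin_cases i <;> fin_cases j <;> first | assumption | exact s ‹_›
    · fin_cases i <;> fin_cases j <;> first | exact (n rfl).elim | assumption | exact s ‹_›
  have c0 := one_hot hX hY hZ xy xz yz (vv 2) (by simpa using gr 2 2) (by simpa [← e0] using gr 2 0)
    (by rw [vd 2 0, e0]; rfl)
  have c1 := one_hot hX hY' hZ' (s xy') (s xz') yz' (vv 2) (by simpa using gr 2 2)
    (by simpa [add_assoc, ← e1] using gr 2 1) (by rw [vd 2 1, e1, add_assoc]; rfl)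
  rcases c0 with ⟨x2, y2, z2⟩ | ⟨x2, y2, z2⟩ | ⟨x2, y2, z2⟩ <;>
    rcases c1 with ⟨x2', y2', z2'⟩ | ⟨x2', y2', z2'⟩ | ⟨x2', y2', z2'⟩ <;>
    try (rw [x2] at x2'; norm_num at x2'; done)
  · left
    obtain ⟨Y2, Z2, hY2, hZ2, yz2, xy2, xz2, e2⟩ := three_dec (vv 2) (n3 2) hX x2
    obtain ⟨a1, a2⟩ := pz hY' hZ' hY yz' e1 xy y1
    obtain ⟨a3, a4⟩ := pz hY' hZ' hZ yz' e1 xz z1
    obtain ⟨b1, b2⟩ := pz hY2 hZ2 hY yz2 e2 xy y2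
    obtain ⟨b3, b4⟩ := pz hY2 hZ2 hZ yz2 e2 xz z2
    obtain ⟨b5, b6⟩ := pz hY2 hZ2 hY' yz2 e2 (s xy') y2'
    obtain ⟨b7, b8⟩ := pz hY2 hZ2 hZ' yz2 e2 (s xz') z2'
    refine ⟨X, fun i e => if e then ![Y, Y', Y2] i else ![Z, Z', Z2] i, hX, fun i e => ?_, fun i => ?_, fun i e => ?_,
      fun i e j e' n => ?_⟩
    · fin_cases i <;> cases e <;> assumption
    · fin_cases i
      exacts [e0, e1.trans (add_assoc _ _ _).symm, e2.trans (add_assoc _ _ _).symm]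
    · fin_cases i <;> cases e <;> first | assumption | exact s ‹_›
    · fin_cases i <;> fin_cases j <;> cases e <;> cases e' <;>
        first | exact (n rfl).elim | assumption | exact s ‹_›
  · exact Or.inr (main hY hZ hY' hZ' xy xz yz xy' xz' yz' e0 e1 y1 z1 x2 y2 z2 y2' z2')
  · exact Or.inr (main hY hZ hZ' hY' xy xz yz xz' xy' (s yz') e0 (by rw [e1, add_comm Y']) y1 z1 x2 y2 z2 z2' y2')
  · exact Or.inr (main hZ hY hY' hZ' xz xy (s yz) xy' xz' yz' (by rw [e0, add_right_comm]) e1 z1 y1 x2 z2 y2 y2' z2')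
  · exact Or.inr (main hZ hY hZ' hY' xz xy (s yz) xz' xy' (s yz') (by rw [e0, add_right_comm])
      (by rw [e1, add_comm Y']) z1 y1 x2 z2 y2 z2' y2')

theorem le1 (hΦ : IsGeneralizedCharacter G Φ) (n4 : ⟪Φ, Φ⟫ = 4) (d : Φ 1 = 0) (hγ : IsSIrr G γ) :
    ∃ n : ℤ, ⟪Φ, γ⟫ = n ∧ -1 ≤ n ∧ n ≤ 1 := by
  obtain ⟨n, hn⟩ := hΦ.ci_int hγ.virt
  have a : nsq Φ = 4 := nsq_eq_of_ci (by simpa using n4)
  have b := sq_le_nsq_of_ci hγ.ci_self hn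
  rw [a] at b
  have b' : n ^ 2 ≤ 4 := by exact_mod_cast b
  have c : n ^ 2 ≠ 4 := fun e => by
    have k := nsq_sub_ci_smul (α := Φ) hγ.ci_self
    rw [a, hn, Complex.norm_intCast, sq_abs, show (n : ℝ) ^ 2 = 4 by exact_mod_cast e, sub_self, nsq_eq_zero,
      sub_eq_zero] at k
    have := congrFun k 1
    rw [d, Pi.smul_apply, smul_eq_mul, eq_comm, mul_eq_zero] at this
    rcases this with z | z
    · rw [show n = 0 by exact_mod_cast z] at e; norm_num at e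
    · exact hγ.apply_one_ne_zero z
  have : n ^ 2 ≤ 3 := by omega
  exact ⟨n, hn, by nlinarith, by nlinarith⟩

theorem TW.shc (T : TW t Q Θ) (ht : orderOf t = 2) (q8 : Q % 8 = 5) (hα : IsSIrr G α) (hβ : IsSIrr G β)
    (hγ : IsSIrr G γ) (hδ : IsSIrr G δ) (o1 : ⟪α, β⟫ = 0) (o2 : ⟪α, γ⟫ = 0) (o3 : ⟪α, δ⟫ = 0) (o4 : ⟪β, γ⟫ = 0)
    (o5 : ⟪β, δ⟫ = 0) (o6 : ⟪γ, δ⟫ = 0) (e : Θ 0 = α + β + γ + δ) (a1 : ⟪Θ 1, α⟫ = 1) (b1 : ⟪Θ 1, β⟫ = 1)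
    (c1 : ⟪Θ 1, γ⟫ = 0) (d1 : ⟪Θ 1, δ⟫ = 0) (a2 : ⟪Θ 2, α⟫ = 0) (b2 : ⟪Θ 2, β⟫ = 0) (c2 : ⟪Θ 2, γ⟫ = 1)
    (d2 : ⟪Θ 2, δ⟫ = 1) : False := by
  have s := @ci_eq_zero_symm G _ _
  have c : ∀ {χ}, IsSIrr G χ → ∀ i, ⟪χ, Θ i⟫ = ⟪Θ i, χ⟫ := fun h i => h.virt.ci_comm (T.virt i)
  have z : ⟪Θ 1 - α - β - (Θ 2 - γ - δ), Θ 1 - α - β - (Θ 2 - γ - δ)⟫ = 0 := by
    simp only [ci_sub_left, ci_sub_right, T.gram, c hα, c hβ, c hγ, c hδ, a1, b1, c1, d1, a2, b2, c2, d2, o1, o2, o3,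
      o4, o5, o6, s o1, s o2, s o3, s o4, s o5, s o6, hα.ci_self, hβ.ci_self, hγ.ci_self, hδ.ci_self]
    simp; norm_num
  have z1 := congrFun (ci_self_eq_zero.1 z) 1
  have z0 := congrFun e 1
  simp only [Pi.sub_apply, Pi.add_apply, T.od _ 1 (by simp), Pi.zero_apply] at z0 z1
  have a0 : ⟪α, Θ 0⟫ = 1 := by simp [e, ci_add_right, hα.ci_self, o1, o2, o3]
  have b0 : ⟪β, Θ 0⟫ = 1 := by simp [e, ci_add_right, hβ.ci_self, s o1, o4, o5]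
  have c0 : ⟪γ, Θ 0⟫ = 1 := by simp [e, ci_add_right, hγ.ci_self, s o2, s o4, o6]
  have d0 : ⟪δ, Θ 0⟫ = 1 := by simp [e, ci_add_right, hδ.ci_self, s o3, s o5, s o6]
  have va := T.val_t ht q8 hα 0 (by simp [a0])
  have vb := T.val_t ht q8 hβ 0 (by simp [b0])
  have vc := T.val_t ht q8 hγ 0 (by simp [c0])
  have vd := T.val_t ht q8 hδ 0 (by simp [d0])
  rw [a0, c hα 1, c hα 2, a1, a2] at va
  rw [b0, c hβ 1, c hβ 2, b1, b2, ← va] at vb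
  rw [c0, c hγ 1, c hγ 2, c1, c2] at vc
  rw [d0, c hδ 1, c hδ 2, d1, d2, ← vc] at vd
  have za := cZ_sirr (t := t) hα
  have zb := cZ_sirr (t := t) hβ
  have zc := cZ_sirr (t := t) hγ
  have zd := cZ_sirr (t := t) hδ
  rw [vb, show β 1 = -α 1 by linear_combination (-z0 - z1) / 2] at zb
  rw [vd, show δ 1 = -γ 1 by linear_combination (-z0 + z1) / 2] at zd
  have k1 : cZ t α + cZ t β = 0 := mul_left_cancel₀ hα.apply_one_ne_zero (by linear_combination za - zb)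
  have k2 : cZ t γ + cZ t δ = 0 := mul_left_cancel₀ hγ.apply_one_ne_zero (by linear_combination zc - zd)
  have k := T.cz 0
  rw [e, cZ_add, cZ_add, cZ_add, k1, zero_add, k2, zero_mul, show xs Q 0 = Q from rfl] at k
  have k' : C1[t].index * (Q * (Q + 1)) ^ 2 * (Q - 1) = 0 := by exact_mod_cast k.symm
  exact mul_ne_zero (mul_ne_zero (by exact_mod_cast index_ne_zero_of_finite)
    (pow_ne_zero _ (mul_ne_zero (by omega) (by omega)))) (by omega) k'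

theorem TW.exists_z (T : TW t Q Θ) (ht : orderOf t = 2) (q8 : Q % 8 = 5) : ∃ z, IsSIrr G z ∧ ∀ i, ⟪Θ i, z⟫ = 1 := by
  have s := @ci_eq_zero_symm G _ _
  have d : ∀ i, Θ i 1 = 0 := fun i => T.od i 1 (by simp)
  have l1 : ∀ i {χ}, IsSIrr G χ → ∃ n : ℤ, ⟪Θ i, χ⟫ = n ∧ -1 ≤ n ∧ n ≤ 1 := fun i _ h =>
    le1 (T.virt i) (by simp [T.gram]) (d i) h
  obtain ⟨a, n, ha, n0, hn⟩ := (T.virt 0).exists_sirr fun e => by simpa [e, ci_zero_left] using T.gram 0 0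
  obtain ⟨m, hm, -, m1⟩ := l1 0 ha
  have a0 : ⟪Θ 0, a⟫ = 1 := by
    have : m = n := by exact_mod_cast hm.symm.trans hn
    rw [hm, show m = 1 by omega]; simp
  obtain ⟨b, c, e, hb, hc, he, o4, o5, o6, eq⟩ := GW.Ch.exists_three ((T.virt 0).sub ha.virt) (by
    simp only [ci_sub_left, ci_sub_right, T.gram, a0, ha.virt.ci_comm (T.virt 0), ha.ci_self]; norm_num)
  have z : ⟪a, b⟫ + (⟪a, c⟫ + ⟪a, e⟫) = 0 := by
    rw [← add_assoc, ← ci_add_right, ← ci_add_right, ← eq, ci_sub_right, ha.virt.ci_comm (T.virt 0), a0, ha.ci_self,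
      sub_self]
  have o1 : ⟪a, b⟫ = 0 := by
    rcases ha.ci_cases hb with ⟨rfl, k⟩ | ⟨rfl, k⟩ | ⟨_, _, k⟩
    · rw [k, o4, o5] at z; norm_num at z
    · rw [k, ci_neg_left, ci_neg_left, o4, o5] at z; norm_num at z
    · exact k
  obtain ⟨o2, o3⟩ := pair_zero ha hc he o6 (by rwa [o1, zero_add] at z)
  have e0 : Θ 0 = a + b + c + e := by rw [add_assoc a, add_assoc a, ← eq]; abel
  have l2 : ∀ i, i ≠ 0 → ∀ {χ}, IsSIrr G χ → ⟪Θ 0, χ⟫ = 1 → ∃ n : ℤ, ⟪Θ i, χ⟫ = n ∧ (n = 0 ∨ n = 1) :=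
    fun i i0 χ h k => by
      obtain ⟨n, hn, n1, n2⟩ := l1 i h
      obtain ⟨m, hm, -, m2⟩ := le1 ((T.virt 0).sub (T.virt i)) (by
        simp only [ci_sub_left, ci_sub_right, T.gram, if_true, if_neg i0, if_neg i0.symm]; norm_num) (by simp [d]) h
      rw [ci_sub_left, k, hn] at hm
      have : 1 - n = m := by exact_mod_cast hm
      exact ⟨n, hn, by omega⟩
  have b0 : ⟪Θ 0, b⟫ = 1 := by simp [e0, ci_add_left, hb.ci_self, o1, s o4, s o5]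
  have c0 : ⟪Θ 0, c⟫ = 1 := by simp [e0, ci_add_left, hc.ci_self, o2, o4, s o6]
  have f0 : ⟪Θ 0, e⟫ = 1 := by simp [e0, ci_add_left, he.ci_self, o3, o5, o6]
  obtain ⟨p1, a1, r1⟩ := l2 1 (by decide) ha a0
  obtain ⟨p2, b1, r2⟩ := l2 1 (by decide) hb b0
  obtain ⟨p3, c1, r3⟩ := l2 1 (by decide) hc c0
  obtain ⟨p4, e1, r4⟩ := l2 1 (by decide) he f0
  obtain ⟨q1, a2, r5⟩ := l2 2 (by decide) ha a0
  obtain ⟨q2, b2, r6⟩ := l2 2 (by decide) hb b0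
  obtain ⟨q3, c2, r7⟩ := l2 2 (by decide) hc c0
  obtain ⟨q4, e2, r8⟩ := l2 2 (by decide) he f0
  have sp : p1 + p2 + p3 + p4 = 2 := by
    have := T.gram 1 0
    rw [e0, ci_add_right, ci_add_right, ci_add_right, a1, b1, c1, e1, if_neg (by decide)] at this
    exact_mod_cast this
  have sq : q1 + q2 + q3 + q4 = 2 := by
    have := T.gram 2 0
    rw [e0, ci_add_right, ci_add_right, ci_add_right, a2, b2, c2, e2, if_neg (by decide)] at this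
    exact_mod_cast this
  have fin : ∀ {χ}, IsSIrr G χ → ⟪Θ 0, χ⟫ = 1 → ⟪Θ 1, χ⟫ = (1 : ℤ) → ⟪Θ 2, χ⟫ = (1 : ℤ) →
      ∃ z, IsSIrr G z ∧ ∀ i, ⟪Θ i, z⟫ = 1 := fun h k0 k1 k2 =>
    ⟨_, h, fun i => by fin_cases i; exacts [k0, by simpa using k1, by simpa using k2]⟩
  rcases show (p1 = 1 ∧ q1 = 1) ∨ (p2 = 1 ∧ q2 = 1) ∨ (p3 = 1 ∧ q3 = 1) ∨ (p4 = 1 ∧ q4 = 1) ∨
      (q1 = 1 - p1 ∧ q2 = 1 - p2 ∧ q3 = 1 - p3 ∧ q4 = 1 - p4) by omega with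
    ⟨rfl, rfl⟩ | ⟨rfl, rfl⟩ | ⟨rfl, rfl⟩ | ⟨rfl, rfl⟩ | ⟨rfl, rfl, rfl, rfl⟩
  · exact fin ha a0 a1 a2
  · exact fin hb b0 b1 b2
  · exact fin hc c0 c1 c2
  · exact fin he f0 e1 e2
  exfalso
  rcases r1 with rfl | rfl <;> rcases r2 with rfl | rfl <;> rcases r3 with rfl | rfl <;> rcases r4 with rfl | rfl <;>
    (try omega) <;> simp only [sub_zero, sub_self, Int.cast_zero, Int.cast_one] at a1 b1 c1 e1 a2 b2 c2 e2
  · exact T.shc ht q8 hc he ha hb o6 (s o2) (s o4) (s o3) (s o5) o1 (by rw [e0]; abel) c1 e1 a1 b1 c2 e2 a2 b2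
  · exact T.shc ht q8 hb he ha hc o5 (s o1) o4 (s o3) (s o6) o2 (by rw [e0]; abel) b1 e1 a1 c1 b2 e2 a2 c2
  · exact T.shc ht q8 hb hc ha he o4 (s o1) o5 (s o2) o6 o3 (by rw [e0]; abel) b1 c1 a1 e1 b2 c2 a2 e2
  · exact T.shc ht q8 ha he hb hc o3 o1 o2 (s o5) (s o6) o4 (by rw [e0]; abel) a1 e1 b1 c1 a2 e2 b2 c2
  · exact T.shc ht q8 ha hc hb he o2 o1 o3 (s o4) o6 o5 (by rw [e0]; abel) a1 c1 b1 e1 a2 c2 b2 e2
  · exact T.shc ht q8 ha hb hc he o1 o2 o3 o4 o5 o6 e0 a1 b1 c1 e1 a2 b2 c2 e2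

end Cfsg.Agent.WA.JW
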