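import Cfsg.Agent.WA.JW2

/-! The exceptional characters of a twisted block. -/

set_option autoImplicit false
set_option linter.unusedSectionVars false
set_option linter.unusedVariables false

namespace Cfsg.Agent.WA.JW

open Cfsg Subgroup Cfsg.Agent.GT Cfsg.Agent.Char Cfsg.Agent.BS Cfsg.Agent.B84C Cfsg.Agent.B84H Cfsg.Agent.Cls
open scoped Classical ComplexConjugate
open JG JH

universe u

variable {G : Type u} [Group G] [Fintype G] {t u g w x : G} {K K0 : Subgroup G} {Q : ℤ} {Θ : Fin 3 → G → ℂ}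

theorem mu0 (h : JG t u g w x K K0 Q) (μ : K →* ℂˣ) (mw : ∀ k : K, μ ⟨w * k * w⁻¹, h.wK _ k.2⟩ = μ k) {k : K}
    (m : k.1 ∈ K0) : μ k = 1 := by
  have e := mw k
  rw [show (⟨w * k * w⁻¹, h.wK _ k.2⟩ : K) = k⁻¹ from Subtype.ext ((h.iK _ k.2).2 m), map_inv] at e
  obtain ⟨j, hj⟩ := h.oK' k.2
  have := congrArg μ (pow_orderOf_eq_one k)
  rwa [← orderOf_coe, hj, map_pow, pow_succ, pow_mul, sq, mul_eq_one_iff_inv_eq.2 e, one_pow, one_mul, map_one] at this

section
variable (h : JG t u g w x K K0 Q) (μ : K →* ℂˣ) (mg : ∀ k : K, μ ⟨g * k * g⁻¹, h.gK _ k.2⟩ = μ k)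
include mg

theorem ind_val (mw : ∀ k : K, μ ⟨w * k * w⁻¹, h.wK _ k.2⟩ = μ k) (θ : M4 × zpowers x → ℂ) (h0 : ∀ m, θ (m, 1) = 0)
    (p : (M4 × zpowers x) × K) :
    ind h.f (fun q => θ q.1 * ch μ q.2) (h.f p) =
      (∑ i : Fin 3, (θ (rot^[i] p.1.1, h.vs^[i] p.1.2) + θ (rot^[i] p.1.1, (h.vs^[i] p.1.2)⁻¹))) * ch μ p.2 := by
  have fg : ∀ i : ℕ, ∃ κ, g ^ i * h.f p * (g ^ i)⁻¹ = h.f ((rot^[i] p.1.1, h.vs^[i] p.1.2), κ) ∧ μ κ = μ p.2 :=
      fun i => by
    induction i with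
    | zero => exact ⟨p.2, by simp⟩
    | succ i ih =>
      obtain ⟨κ, ih, e⟩ := ih
      exact ⟨_, by rw [Function.iterate_succ_apply', Function.iterate_succ_apply', ← h.f_g ((_, _), κ), ← ih,
        pow_succ']; group, (mg κ).trans e⟩
  choose κ fg fm using fg
  rw [ind_cos' h.f h.f_inj (ι := Fin 3 × Bool) (fun i => (if i.2 then w else 1) * g ^ i.1.val)
    (fun i => ((rot^[i.1] p.1.1, if i.2 then (h.vs^[i.1] p.1.2)⁻¹ else h.vs^[i.1] p.1.2),
      if i.2 then ⟨_, h.wK _ (κ i.1).2⟩ else κ i.1)) p _ ?_ ?_ ?_ ?_, Fintype.sum_prod_type, Finset.sum_mul]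
  · exact Finset.sum_congr rfl fun i _ => by simp [add_comm, ch, mw, fm, add_mul]
  · intro e b
    have : Commute b.1 e.1 := Prod.ext (mul_comm _ _) (Subtype.ext (h.RR b.1.2.2 e.1.2.2))
    simp only [Prod.fst_mul, Prod.fst_inv, mul_assoc, this.eq, inv_mul_cancel_left, Prod.snd_mul, Prod.snd_inv, ch,
      map_mul, map_inv, mul_comm (μ b.2)]
  · rintro ⟨i, _ | _⟩
    · simpa using fg i
    · simp only [if_true]
      rw [← h.f_w ((_, _), κ i), ← fg]; group
  · have cw : ∀ b : Bool, Commute (if b then w else 1) t := fun b => by cases b; exacts [Commute.one_left t, h.wt]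
    have n1 : ¬ Commute g t := fun e => h.ne (h.g1.symm.trans (TT.commute_iff_conj.1 e))
    have gi : g⁻¹ = g ^ 2 := inv_eq_of_mul_eq_one_right (by rw [← pow_succ', h.g3'])
    have n2 : ¬ Commute (g ^ 2) t := fun e => n1 (by rw [← gi] at e; simpa using e.inv_left)
    rintro ⟨i, b⟩ ⟨j, c⟩ m
    have c1 : Commute (g ^ i.val * (g ^ j.val)⁻¹) t := by
      have := ((cw b).inv_left.mul_left (h.cE m).1).mul_left (cw c)
      dsimp only at this
      generalize (if b then w else 1) = b' at this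
      generalize (if c then w else 1) = c' at this
      simpa [mul_assoc] using this
    obtain rfl : i = j := by
      fin_cases i <;> fin_cases j <;> first | rfl | (exfalso; simp only [pow_zero, pow_one, one_mul, inv_one, mul_one] at c1)
      · exact n1 (by simpa using c1.inv_left)
      · exact n2 (by simpa using c1.inv_left)
      · exact n1 c1
      · exact n1 (by simpa [sq] using c1.inv_left)
      · exact n2 c1
      · exact n1 (by simpa [sq] using c1)
    have nw : ¬ Commute w x := fun e => h.x1 (h.nwa (mem_zpowers x) e)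
    have := (h.cE m).2 x (mem_zpowers x)
    cases b <;> cases c
    · rfl
    · exact (nw (by simpa using this.inv_left)).elim
    · exact (nw (by simpa using this)).elim
    · rfl
  · intro c b e n
    have b1 : (b.1.2 : G) ^ (2 * Nat.card K) ≠ 1 := fun k =>
      n (by
        have := h0 b.1.1
        rw [← show b.1.2 = 1 from Subtype.ext (h.pw1 b.1.2.2 k)] at this
        exact mul_eq_zero_of_left this _)
    have e2 : c⁻¹ * (p.1.2 : G) ^ (2 * Nat.card K) * c⁻¹⁻¹ = b.1.2 ^ (2 * Nat.card K) := by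
      rw [← h.f_pw, ← h.f_pw, e, ← conj_pow, inv_inv]
    have a1 : (p.1.2 : G) ^ (2 * Nat.card K) ≠ 1 := fun k => b1 (by rw [← e2, k]; group)
    obtain ⟨i, c1, c2⟩ := h.nW (h.ti (pow_mem b.1.2.2 _) (pow_mem p.1.2.2 _) a1 (c := c) (by rw [← e2]; group))
    rcases h.cU' c1 c2 with m | m
    · exact ⟨(i, false), by simpa using m⟩
    · exact ⟨(i, true), by simpa [mul_assoc] using m⟩

theorem th_val (T : TW t Q Θ)
    (val : ∀ i, ∀ a ∈ zpowers x, a ≠ 1 → ∀ k : K, Θ i (t * (a * k)) = μ k * (2 * (1 - ys i))) (i : Fin 3)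
    (p : (M4 × zpowers x) × K) (p1 : p.1.2 ≠ 1) :
    Θ i (h.f p) = (if p.1.1 = 1 then (0 : ℂ) else 2 * (1 - ys i)) * ch μ p.2 := by
  have k : ∀ p : (M4 × zpowers x) × K, Θ i (h.f p) = Θ i (h.f ((rot p.1.1, h.vs p.1.2), ⟨_, h.gK _ p.2.2⟩)) :=
    fun p => by rw [← h.f_g, (T.virt i).isClassFunction]
  have v1 : ∀ {y}, y ≠ 1 → h.vs y ≠ 1 := fun n e => n (Subtype.ext (conj_eq_one_iff.1 (congrArg Subtype.val e)))
  have k1 : ∀ (y : zpowers x) (κ : K), y ≠ 1 → Θ i (h.f (((.ofAdd 1, 1), y), κ)) = 2 * (1 - ys i) * μ κ :=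
      fun y κ y1 => by
    rw [f_ap, h.ψ10, mul_assoc, mul_comm _ (μ κ : ℂ)]; exact val i y y.2 (fun e => y1 (Subtype.ext e)) κ
  obtain ⟨⟨m, y⟩, κ⟩ := p
  rcases h.M4_cases m with rfl | rfl | rfl | rfl
  all_goals dsimp only [ch]
  · rw [f_ap, h.ψ00, one_mul, T.od i _ (((h.oR y.2).mul (h.oK' κ.2)).of_dvd_nat
      (h.RK y.2 κ.2).orderOf_mul_dvd_mul_orderOf), if_pos (by decide), zero_mul]
  · rw [if_neg (by decide), k1 y κ p1]
  · rw [if_neg (by decide), k, k, ← mg, ← mg]; exact k1 _ _ (v1 (v1 p1))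
  · rw [if_neg (by decide), k, ← mg]; exact k1 _ _ (v1 p1)

end

set_option maxHeartbeats 400000 in
theorem xw (h : JG t u g w x K K0 Q) (T : TW t Q Θ) (μ : K →* ℂˣ)
    (mg : ∀ k : K, μ ⟨g * k * g⁻¹, h.gK _ k.2⟩ = μ k) (mw : ∀ k : K, μ ⟨w * k * w⁻¹, h.wK _ k.2⟩ = μ k)
    (val : ∀ i, ∀ a ∈ zpowers x, a ≠ 1 → ∀ k : K, Θ i (t * (a * k)) = μ k * (2 * (1 - ys i))) :
    ∃ Ξ, XW t Q Θ Ξ := by
  obtain ⟨l, hl⟩ := h.exists_lam
  have x1 := h.x1
  let x' : zpowers x := ⟨x, mem_zpowers x⟩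
  let θ : Fin 4 → M4 × zpowers x → ℂ := fun k p => ch (bt k) p.1 * om l p.2
  have h0 : ∀ k m, θ k (m, 1) = 0 := fun k m => by simp [θ, om, ch]
  have vt : ∀ k, IsGeneralizedCharacter G (ind h.f fun q => θ k q.1 * ch μ q.2) := fun k => by
    have a := ((((ch_virt (bt k)).comp (MonoidHom.fst M4 (zpowers x))).mul (((ch_virt 1).sub (ch_virt l)).comp
      (MonoidHom.snd M4 (zpowers x)))).comp (MonoidHom.fst _ K)).mul ((ch_virt μ).comp (MonoidHom.snd _ K))
    have b : IsGeneralizedCharacter ((M4 × zpowers x) × K) (fun q => θ k q.1 * ch μ q.2) := a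
    exact b.ind h.f
  have KK : ∀ k {φ : G → ℂ} {ι : Type} [Fintype ι] (a : ι → M4 → ℂ) (b : ι → zpowers x → ℂ), IsClassFunction G φ →
      (∀ p : (M4 × zpowers x) × K, p.1.2 ≠ 1 → φ (h.f p) = (∑ i, a i p.1.1 * b i p.1.2) * ch μ p.2) →
      ⟪ind h.f fun q => θ k q.1 * ch μ q.2, φ⟫ = ∑ i, ⟪ch (bt k), a i⟫ * ⟪om l, b i⟫ := by
    intro k φ ι _ a b c e
    rw [ci_ind_left _ _ c, Finset.sum_congr rfl fun i _ => (ci_prod _ _ _ _).symm, ← ci_sum_right,
      ← mul_one ⟪_, ∑ i, _⟫, ← (ci_ch μ μ).trans (if_pos rfl), ← ci_prod]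
    refine congrArg (_ * ·) (Finset.sum_congr rfl fun p _ => ?_)
    by_cases p1 : p.1.2 = 1
    · simp [θ, om, ch, p1]
    · simp only [e p p1, Finset.sum_apply, θ, mul_one]
  have xx : x ≠ x⁻¹ := fun e => x1 (h.sq1 (mem_zpowers x) (mul_eq_one_iff_eq_inv.2 e))
  have n1 : g * x * g⁻¹ ≠ x := fun e => x1 (h.fp x (mem_zpowers x) (TT.commute_iff_conj.2 e))
  have n2 : g * (g * x * g⁻¹) * g⁻¹ ≠ x := fun e => n1 (by nth_rewrite 1 [← e]; rw [h.g3c])
  have n3 : (g * x * g⁻¹)⁻¹ ≠ x := fun e => n2 (by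
    rw [inv_eq_iff_eq_inv.1 e, ← conj_inv, inv_eq_iff_eq_inv.1 e, inv_inv])
  have n4 : (g * (g * x * g⁻¹) * g⁻¹)⁻¹ ≠ x := fun e => n3 (by
    nth_rewrite 1 [← e]; rw [← conj_inv, inv_inv, h.g3c])
  have co : ∀ ν : zpowers x →* ℂˣ, Function.Injective ν → ⟪om l, om ν⟫ = if l = ν then 2 else 1 := fun ν hν => by
    have k : ∀ ν : zpowers x →* ℂˣ, Function.Injective ν → ν ≠ 1 := fun ν hν e =>
      x1 (congrArg Subtype.val (hν (a₁ := x') (a₂ := 1) (by simp [e])))
    simp only [om, ci_sub_left, ci_sub_right, ci_ch, if_neg (k l hl), if_neg (k ν hν).symm, if_true]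
    split_ifs <;> norm_num
  have vi : Function.Injective h.vs := fun a b e => Subtype.ext ((MulAut.conj g).injective (congrArg Subtype.val e))
  let lam : Fin 3 → zpowers x →* ℂˣ := ![l, l.comp h.vs, (l.comp h.vs).comp h.vs]
  have li : ∀ i, Function.Injective (lam i) := fun i => by
    fin_cases i; exacts [hl, hl.comp vi, (hl.comp vi).comp vi]
  have c1 : ∀ i : Fin 3, ⟪om l, om (lam i) + om (lam i)⁻¹⟫ = if i = 0 then 3 else 2 := fun i => by
    rw [ci_add_right, co _ (li i), co _ (fun a b e => li i (inv_injective e))]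
    have k : ∀ ν : zpowers x →* ℂˣ, ∀ y : zpowers x, ν x' = l y → (y : G) ≠ x → l ≠ ν := fun ν y e m k =>
      m (congrArg Subtype.val (hl (e.symm.trans (DFunLike.congr_fun k x').symm)))
    fin_cases i
    · rw [if_pos (by rfl), if_neg (k _ x'⁻¹ (by simp [lam]) xx.symm)]; norm_num
    · rw [if_neg (k _ (h.vs x') rfl n1), if_neg (k _ (h.vs x')⁻¹ (by simp [lam]) n3)]; norm_num
    · rw [if_neg (k _ (h.vs (h.vs x')) rfl n2), if_neg (k _ (h.vs (h.vs x'))⁻¹ (by simp [lam]) n4)]; norm_num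
  have c2 : ⟪om l, fun _ => 1⟫ = 1 := by
    rw [om, ci_sub_left]
    refine (congrArg₂ (· - ·) (ci_ch 1 1) (ci_ch l 1)).trans ?_
    rw [if_pos rfl, if_neg fun e => x1 (congrArg Subtype.val (hl (a₁ := x') (a₂ := 1) (by simp [e]))), sub_zero]
  have cM : (Nat.card M4 : ℂ) = 4 := by simp
  have s1 : sg2 (.ofAdd 1) = -1 := by simp [sg2, LY.cyc]
  have zq : ∀ k {y : G}, y * y = 1 → ind h.f (fun q => θ k q.1 * ch μ q.2) y = 0 := fun k y e =>
    ind_eq_zero_of_forall fun c p m => by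
      have := (h.f_inv p (by rw [m, show c⁻¹ * y * c * (c⁻¹ * y * c) = c⁻¹ * (y * y) * c by group, e]; simp)).1
      rw [show p.1 = (p.1.1, 1) from Prod.ext rfl this, h0, zero_mul]
  refine ⟨fun k => ind h.f fun q => θ k q.1 * ch μ q.2, vt, fun k j => ?_, fun k i => ?_, fun k => zq k (one_mul 1),
    fun k => zq k h.tt, fun k => ?_, fun k k0 y o => ?_⟩
  · rw [KK k (fun (i : Fin 3) m => ch (bt j) (rot^[i] m)) (fun i => om (lam i) + om (lam i)⁻¹) (vt j).isClassFunction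
      fun p _ => (ind_val h μ mg mw _ (h0 j) p).trans (congrArg (· * _) (Finset.sum_congr rfl fun i _ => by
        fin_cases i <;> simp [θ, lam, om, ch, mul_add]))]
    simp only [c1, ci_def (ch _), sum_M4, cM, Fin.sum_univ_three]
    fin_cases k <;> fin_cases j <;> simp [ch, bt, rot, s1] <;> norm_num
  · rw [KK k (ι := Unit) (fun _ m => if m = 1 then 0 else 2 * (1 - ys i)) (fun _ _ => 1) (T.virt i).isClassFunction
      fun p p1 => by simpa using th_val h μ mg T val i p p1]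
    simp only [c2, ci_def (ch _), sum_M4, cM]
    fin_cases k <;> fin_cases i <;> simp [ch, bt, s1, ys, map_ofNat] <;> norm_num
  · rw [cZ_ind, Finset.sum_congr rfl fun p _ => show _ = θ k p.1 *
      ((if p.2.1 ∈ K0 then 1 else 0) * (4 * orderOf x * Nat.card K0 : ℂ)) from ?_, Fintype.sum_prod_type]
    swap
    · by_cases p1 : p.1.2 = 1
      · rw [show p.1 = (p.1.1, 1) from Prod.ext rfl p1, h0, zero_mul, zero_mul, zero_mul]
      rw [h.cN_val p p1, ite_mul, one_mul, zero_mul]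
      split_ifs with m
      · rw [ch, mu0 h μ mw m, Units.val_one, mul_one]
      · rw [mul_zero, mul_zero]
    have c3 := c2
    rw [ci_def, Nat.card_zpowers, inv_mul_eq_one₀ (Nat.cast_ne_zero.2 (orderOf_pos x).ne')] at c3
    simp only [map_one, mul_one] at c3
    have c4 : ∀ (F : Fintype K) (d : ∀ j : K, Decidable (j.1 ∈ K0)),
        ∑ j : K, (if j.1 ∈ K0 then (1 : ℂ) else 0) = Nat.card K0 := fun F d => by
      convert (BSW.sum_ite_mem (K0.subgroupOf K)).trans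
        (congrArg _ (Nat.card_congr (subgroupOfEquivOfLe h.le0).toEquiv))
      exact mem_subgroupOf.symm
    dsimp only
    simp only [← Finset.mul_sum, ← Finset.sum_mul]
    rw [Finset.sum_congr rfl fun _ _ => by rw [c4], ← Finset.sum_mul]
    simp only [θ]
    rw [Fintype.sum_prod_type, ← Finset.sum_mul_sum, ← c3, sum_M4, Nat.card_prod, Nat.card_prod, Nat.card_zpowers,
      Nat.cast_mul, Nat.cast_mul, cM, ← C1[t].index_mul_card]
    have r0 : (orderOf x : ℂ) ≠ 0 := Nat.cast_ne_zero.2 (orderOf_pos x).ne'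
    have k0 := card_ne_zero_complex K
    have := congrArg (Int.cast : ℤ → ℂ) h.card
    push_cast at this
    generalize Nat.card C1[t] = c at this ⊢
    generalize Nat.card K = c1 at this k0 ⊢
    generalize Nat.card K0 = c2 at this ⊢
    fin_cases k <;> simp [ch, bt, s1]
    field_simp
    linear_combination (C1[t].index : ℂ) * this
  · have : ind h.f ((fun q => θ 0 q.1 * ch μ q.2) + (2 : ℂ) • (fun q => θ k q.1 * ch μ q.2) - (fun q => θ 1 q.1 * ch μ q.2) - (fun q => θ 2 q.1 * ch μ q.2) -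
        fun q => θ 3 q.1 * ch μ q.2) y = 0 := ind_eq_zero_of_forall fun c p m => by
      have p1 : p.1.1 = 1 := h.ψ_inj (by
        have o' : Odd (orderOf (h.f p)) := by
          have := orderOf_conj' y c⁻¹
          rw [inv_inv] at this
          rwa [m, this]
        have o2 := ((h.oR p.1.2.2).mul (h.oK' p.2.2)).of_dvd_nat (h.RK p.1.2.2 p.2.2).orderOf_mul_dvd_mul_orderOf
        have c0 : Commute (p.1.2 * p.2 : G) (h.ψ p.1.1) := (h.RW p.1.2.2 ⟨_, rfl⟩).mul_left (h.KW p.2.2 ⟨_, rfl⟩)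
        have cm : Commute (h.ψ p.1.1 * (p.1.2 * p.2)) (p.1.2 * p.2 : G)⁻¹ :=
          c0.symm.inv_right.mul_left (Commute.refl _).inv_right
        have d := cm.orderOf_mul_dvd_mul_orderOf
        rw [mul_inv_cancel_right, orderOf_inv, ← mul_assoc, ← h.f_ap] at d
        exact sq_one ((o'.mul o2).of_dvd_nat d) (h.toQ3.sqU ⟨_, rfl⟩))
      simp [θ, p1, ch]; ring
    simpa [ind_sub, ind_add, ind_smul] using this

end Cfsg.Agent.WA.JW
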