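import Cfsg.Agent.WA.JM
import Cfsg.Agent.BG.S12

/-! Characters of defect zero; solvable groups with three mutually non-commuting primes. -/

set_option autoImplicit false
set_option linter.unusedSectionVars false
set_option linter.unusedVariables false

namespace Cfsg.Agent.WA.NJ

open Cfsg Subgroup Cfsg.Agent.GT Cfsg.Agent.Char Cfsg.Agent.BS Cfsg.Agent.GW
open scoped Classical ComplexConjugate

universe u

section
variable {G : Type u} [Group G] [Fintype G] {χ : G → ℂ} {p : ℕ}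

/-- indicator of the `p`-regular elements -/
noncomputable def rg (p : ℕ) (g : G) : ℂ := if p ∣ orderOf g then 0 else 1

theorem rg_class : IsClassFunction G (rg p) := fun g x => by simp only [rg, orderOf_conj']

theorem rg_virt (hp : p.Prime) {a m : ℕ} (hm : ¬ p ∣ m) (h : Nat.card G = p ^ a * m) :
    IsGeneralizedCharacter G fun g => (p : ℂ) ^ a * rg p g := by
  have hi : ∀ g : G, ∃ n : ℤ, (p : ℂ) ^ a * rg p g = n := fun g => by
    unfold rg; split_ifs
    · exact ⟨0, by simp⟩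
    · exact ⟨p ^ a, by simp⟩
  refine ZC.virt_of_rational (zc_of_elementary _ (fun g x => by rw [rg_class g x])
    (fun g => by obtain ⟨n, e⟩ := hi g; rw [e]; exact Char.isIntegral_intCast n)
    fun l hl w hw P hP hPw => ?_) hi fun g k hk => by simp only [rg, odd_orderOf_pow hk]
  have := Fintype.ofFinite P
  have o : ∀ y : P, orderOf (w * y) = orderOf w * orderOf (y : G) := fun y =>
    Commute.orderOf_mul_eq_mul_orderOf_of_coprime (mem_cent1.1 (hPw y.2)).symm
      (hw.coprime' ((isPi_of_isPGroup hl hP).orderOf y.2))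
  by_cases e : l = p
  · subst e
    have := Fact.mk hl
    obtain ⟨b, hb⟩ := hP.exists_card_eq
    have d : l ^ b ∣ l ^ a := ((Nat.Coprime.pow_left b ((Nat.Prime.coprime_iff_not_dvd hl).2 hm))).dvd_of_dvd_mul_right
      (h ▸ hb ▸ P.card_subgroup_dvd_card)
    obtain ⟨c, hc⟩ := d
    convert (zc_char (isCharacter_regular (G := P))).smul (Char.isIntegral_natCast c) using 2 with y
    simp only [rg, o, hl.dvd_mul, (piNat_single_compl_iff hl).1 hw, false_or, Pi.smul_apply, smul_eq_mul]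
    by_cases y1 : y = 1
    · have : (l : ℂ) ^ a = l ^ b * c := by exact_mod_cast hc
      rw [if_pos y1, if_neg (by simp [y1, hl.one_lt.ne']), hb, this]; push_cast; ring
    · obtain ⟨k, hk⟩ := (IsPGroup.iff_orderOf.1 hP) y
      rw [if_neg y1, if_pos, mul_zero, mul_zero]
      rw [orderOf_coe, hk]
      exact dvd_pow_self l fun k0 => y1 (by simpa [k0] using hk)
  · obtain ⟨n, hn⟩ := hi w
    convert zc_const (G := P) (Char.isIntegral_intCast n) using 2 with y
    rw [← hn]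
    have : ¬ p ∣ orderOf (y : G) := fun d =>
      e ((isPi_of_isPGroup hl hP).orderOf y.2 p hp d).symm
    simp only [rg, o, hp.dvd_mul, this, or_false]

theorem dz_irr (hχ : IsIrrCharacter G χ) (hp : p.Prime) {d k : ℤ} (hd : χ 1 = d) (hk : ¬ (p : ℤ) ∣ k)
    (h : (Nat.card G : ℤ) ∣ d * k) {y : G} (hy : p ∣ orderOf y) : χ y = 0 := by
  obtain ⟨a, m, hm, e⟩ := Nat.exists_eq_pow_mul_and_not_dvd (Nat.card_pos (α := G)).ne' p hp.ne_one
  have v := hχ.isSIrr.virt
  obtain ⟨z, hz⟩ := ((rg_virt hp hm e).mul v).ci_int v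
  let od : G → ℂ := fun g => rg p g * χ g
  have n1 : ⟪od, od⟫ = ⟪od, χ⟫ := congrArg (_ * ·) (Finset.sum_congr rfl fun g _ => by
    simp only [od, rg]; split_ifs <;> simp)
  have n2 : (p : ℂ) ^ a * ⟪od, χ⟫ = z := by
    rw [← hz, ← ci_smul_left]; congr 1; ext g; simp [od, mul_assoc]
  have i1 := hχ.isIntegral_central (f := fun g => rg p g * conj (χ g))
    (fun g x => by simp only [rg_class g x, hχ.isClassFunction g x])
    fun g => (by unfold rg; split_ifs; exacts [isIntegral_zero, isIntegral_one] : IsIntegral ℤ (rg p g)).mul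
      (isIntegral_conj (v.isIntegral g))
  have e1 : ∑ g, rg p g * conj (χ g) * χ g = Nat.card G * ⟪od, χ⟫ := by
    rw [card_mul_ci]; exact Finset.sum_congr rfl fun g _ => by simp only [od]; ring
  rw [e1, hd] at i1
  have d0 : (d : ℂ) ≠ 0 := hd ▸ hχ.apply_one_ne_zero
  obtain ⟨c, hc⟩ := h
  have hc' : (d : ℂ) * k = Nat.card G * c := by exact_mod_cast hc
  have p0 : ((p : ℤ) ^ a) ≠ 0 := pow_ne_zero _ (by exact_mod_cast hp.ne_zero)
  have dv : (p : ℤ) ^ a ∣ k * z := int_dvd_of_isIntegral (i1.mul (Char.isIntegral_intCast c)) p0 (by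
    push_cast
    rw [← n2]
    field_simp
    linear_combination (p : ℂ) ^ a * ⟪od, χ⟫ * hc')
  obtain ⟨s, hs⟩ := (IsCoprime.pow_left ((Nat.prime_iff_prime_int.1 hp).irreducible.coprime_iff_not_dvd.2
    hk)).dvd_of_dvd_mul_left dv
  have n3 : ⟪od, χ⟫ = s := mul_left_cancel₀ (show (p : ℂ) ^ a ≠ 0 by exact_mod_cast p0)
    (by rw [n2, hs]; push_cast; rfl)
  have pos : 0 < s := by
    have := nsq_pos (φ := od) fun e => d0 (by
      simpa [od, rg, hp.one_lt.ne', hd] using congrFun e 1)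
    rw [nsq_eq_of_ci (r := s) (by rw [n1, n3]; simp)] at this
    exact_mod_cast this
  have n4 : nsq (χ - od) = 1 - s := nsq_eq_of_ci (by
    rw [ci_sub_left, ci_sub_right, ci_sub_right, n1, hχ.ci_self, ← ci_conj_symm od χ, n3]; simp)
  have := nsq_nonneg (χ - od)
  have s1 : (1 : ℝ) ≤ s := by exact_mod_cast pos
  have := congrFun (nsq_eq_zero.1 (show nsq (χ - od) = 0 by linarith)) y
  simpa [od, rg, hy] using this

/-- characters of `p`-defect zero vanish on `p`-singular elements -/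
theorem dz (hχ : IsSIrr G χ) (hp : p.Prime) {d k : ℤ} (hd : χ 1 = d) (hk : ¬ (p : ℤ) ∣ k)
    (h : (Nat.card G : ℤ) ∣ d * k) {y : G} (hy : p ∣ orderOf y) : χ y = 0 := by
  rcases hχ with i | i
  · exact dz_irr i hp hd hk h hy
  · simpa using dz_irr i hp (d := -d) (by simp [hd]) hk (by simpa using h) hy

end

variable {G : Type u} [Group G] [Finite G] {D : Subgroup G}

theorem three (hs : Group.IsSolvable D) {π : Set ℕ} {p q r : ℕ} (hp : p.Prime) (hq : q.Prime)
    (hr : r.Prime) (pq : p ≠ q) (pr : p ≠ r) (qr : q ≠ r) (hπ : π = {p, q, r})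
    (d : ∀ a ∈ π, a ∣ Nat.card D)
    (nc : ∀ x ∈ D, ∀ y ∈ D, orderOf x ∈ π → orderOf y ∈ π → Commute x y → orderOf x = orderOf y) :
    False := by
  have pr' : ∀ a ∈ π, a.Prime := by rintro a ha; rw [hπ] at ha; rcases ha with rfl | rfl | rfl <;> assumption
  have oth : ∀ a b : ℕ, ∃ c ∈ π, c ≠ a ∧ c ≠ b := fun a b => by
    simp only [hπ, Set.mem_insert_iff, Set.mem_singleton_iff, exists_eq_or_imp, exists_eq_left]; omega
  obtain ⟨J, hJ⟩ := exists_hall π hs
  have sJ := solv_of_le hs hJ.le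
  have sr : ∀ {a b : ℕ} {A B : Subgroup G}, a.Prime → b.Prime → a ≠ b → IsPGroup a A → IsPGroup b B →
      A ≤ J → B ≤ J → Semiregular A B := by
    intro a b A B ha hb ab hA hB AJ BJ
    refine semiregular_iff.2 fun x hx x1 y hy c => by_contra fun y1 => ab ?_
    have k : ∀ {a : ℕ} {A : Subgroup G} {x : G}, a.Prime → IsPGroup a A → A ≤ J → x ∈ A → x ≠ 1 →
        ∃ z ∈ zpowers x, orderOf z = a ∧ z ∈ D ∧ a ∈ π := by
      intro a A x ha hA AJ hx x1
      have := Fact.mk ha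
      obtain ⟨z, hz, o⟩ := exists_mem_orderOf_eq ha
        (PG.dvd_card_of_ne_bot (hA.to_le (zpowers_le.2 hx)) (by simpa using x1))
      have m := AJ (zpowers_le.2 hx hz)
      exact ⟨z, hz, o, hJ.le m, hJ.isPi.orderOf m a ha (o ▸ dvd_rfl)⟩
    obtain ⟨z, hz, oz, zD, za⟩ := k ha hA AJ hy y1
    obtain ⟨w, hw, ow, wD, wb⟩ := k hb hB BJ hx x1
    rw [← oz, ← ow]
    exact nc z zD w wD (oz ▸ za) (ow ▸ wb)
      (commute_of_mem_zpowers_left hz (commute_of_mem_zpowers_left hw (Commute.symm c)).symm)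
  have dJ : ∀ a ∈ π, a ∣ Nat.card J := fun a ha => hJ.prime_dvd (pr' a ha) ha (d a ha)
  obtain ⟨c0, h0, -⟩ := oth 0 0
  obtain ⟨a, ha, na⟩ := exists_piCoreOf_single_ne_bot sJ (hJ.ne_bot (pr' _ h0) h0 (d _ h0))
  obtain ⟨X, hX⟩ := exists_hall ({a} : Set ℕ)ᶜ sJ
  obtain ⟨c1, h1, c1a, -⟩ := oth a a
  obtain ⟨b, hb, nb⟩ := exists_piCoreOf_single_ne_bot (solv_of_le sJ hX.le)
    (hX.ne_bot (pr' _ h1) c1a (dJ _ h1))
  have pa := piCoreOf_isPGroup ha J
  have pb := piCoreOf_isPGroup hb X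
  have ba : a ≠ b := by
    rintro rfl
    exact nb (eq_bot_iff.2 ((le_inf le_rfl (piCoreOf_le _ _)).trans
      ((piCoreOf_isPi _ _).inf_eq_bot hX.isPi).le))
  obtain ⟨c, hc, ca, cb⟩ := oth a b
  obtain ⟨y, hy, oy⟩ := exists_mem_orderOf_eq (pr' c hc) (hX.prime_dvd (pr' c hc) ca (dJ c hc))
  have pc : IsPGroup c (zpowers y) := IsPGroup.of_card (n := 1) (by rw [Nat.card_zpowers, oy, pow_one])
  have yX := zpowers_le.2 hy
  have KX : piCoreOf {b} X ⊔ zpowers y ≤ X := sup_le (piCoreOf_le _ _) yX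
  have := BG.semiregular_cent_of_cent_le (yX.trans (self_le_norm_piCoreOf _ _))
    (sr hb (pr' c hc) cb.symm pb pc ((piCoreOf_le _ _).trans hX.le) (yX.trans hX.le))
    (KX.trans (hX.le.trans (self_le_norm_piCoreOf {a} J)))
    (((piCoreOf_isPi _ _).coprime hX.isPi).coprime_dvd_right (card_dvd_of_le KX))
    (solv_of_le sJ (piCoreOf_le _ _))
    (((sr ha (pr' c hc) ca.symm pa pc (piCoreOf_le _ _) (yX.trans hX.le)).inf_cent le_rfl
      (by rw [ne_bot_iff_one_lt_card, Nat.card_zpowers, oy]; exact (pr' c hc).one_lt)).le.trans bot_le)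
  exact na (eq_bot_iff.2 ((le_inf le_rfl (le_cent_symm this)).trans
    ((sr ha hb ba pa pb (piCoreOf_le _ _) ((piCoreOf_le _ _).trans hX.le)).inf_cent le_rfl nb).le))

end Cfsg.Agent.WA.NJ
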