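import Cfsg.Agent.WA.NJB

/-! A group of Janko-Ree type has no solvable subgroup of order nearly divisible by the number of involutions. -/

set_option autoImplicit false
set_option linter.unusedSectionVars false
set_option linter.unusedVariables false

namespace Cfsg.Agent.WA.NJ

open Cfsg Subgroup Cfsg.Agent.GT Cfsg.Agent.Char Cfsg.Agent.BS Cfsg.Agent.B84C Cfsg.Agent.B84H Cfsg.Agent.Cls JE
open scoped Classical

universe u

variable {G : Type u} [Group G] [Fintype G] {t u g w x : G} {S L : Subgroup G} {Q : ℤ} {Θ : Fin 3 → G → ℂ}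
  {a : G → ℂ} {b : Fin 3 → Bool → G → ℂ}

theorem no0 (T : TD t x Q Θ) (s : SA t Q Θ a b) (i : Fin 3) (e : Bool) {y : G} (o : Odd (orderOf y))
    (h1 : a y = 0) (h2 : b i e y = 0) (h3 : b i (!e) y = 0) : False := by
  have := T.od i y o
  rw [s.eq] at this
  cases e <;> simp only [Bool.not_true, Bool.not_false] at h3 <;> simp [h1, h2, h3] at this

/-- three primes, no two of which divide the order of an element of odd order -/
structure P3 (G : Type u) [Group G] (p q r : ℕ) : Prop where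
  hp : p.Prime
  hq : q.Prime
  hr : r.Prime
  p2 : p ≠ 2
  q2 : q ≠ 2
  r2 : r ≠ 2
  pq : ∀ y : G, Odd (orderOf y) → p ∣ orderOf y → ¬ q ∣ orderOf y
  pr : ∀ y : G, Odd (orderOf y) → p ∣ orderOf y → ¬ r ∣ orderOf y
  qr : ∀ y : G, Odd (orderOf y) → q ∣ orderOf y → ¬ r ∣ orderOf y

theorem P3.no {p q r : ℕ} (h : P3 G p q r) {D : Subgroup G} (hs : Group.IsSolvable D) (dp : p ∣ Nat.card D)
    (dq : q ∣ Nat.card D) (dr : r ∣ Nat.card D) : False := by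
  have ne : ∀ {p q : ℕ}, p.Prime → p ≠ 2 → p ∣ Nat.card D →
      (∀ y : G, Odd (orderOf y) → p ∣ orderOf y → ¬ q ∣ orderOf y) → p ≠ q := by
    rintro p _ hp p2 d k rfl
    obtain ⟨y, -, o⟩ := exists_mem_orderOf_eq hp d
    exact k y (o ▸ hp.odd_of_ne_two p2) (o ▸ dvd_rfl) (o ▸ dvd_rfl)
  refine three hs h.hp h.hq h.hr (ne h.hp h.p2 dp h.pq) (ne h.hp h.p2 dp h.pr) (ne h.hq h.q2 dq h.qr) rfl
    (by rintro a (rfl | rfl | rfl) <;> assumption) fun x _ y _ hx hy c => by_contra fun n => ?_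
  have pr : ∀ a ∈ ({p, q, r} : Set ℕ), a.Prime ∧ Odd a := by
    rintro a (rfl | rfl | rfl)
    exacts [⟨h.hp, h.hp.odd_of_ne_two h.p2⟩, ⟨h.hq, h.hq.odd_of_ne_two h.q2⟩, ⟨h.hr, h.hr.odd_of_ne_two h.r2⟩]
  have o := c.orderOf_mul_eq_mul_orderOf_of_coprime ((Nat.coprime_primes (pr _ hx).1 (pr _ hy).1).2 n)
  have od : Odd (orderOf (x * y)) := o ▸ (pr _ hx).2.mul (pr _ hy).2
  have d1 : orderOf x ∣ orderOf (x * y) := o ▸ dvd_mul_right _ _
  have d2 : orderOf y ∣ orderOf (x * y) := o ▸ dvd_mul_left _ _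
  rcases hx with hx | hx | hx <;> rcases hy with hy | hy | hy <;> rw [hx] at d1 n <;> rw [hy] at d2 n
  exacts [n rfl, h.pq _ od d1 d2, h.pr _ od d1 d2, h.pq _ od d2 d1, n rfl, h.qr _ od d1 d2, h.pr _ od d2 d1,
    h.qr _ od d2 d1, n rfl]

variable [IsSimpleGroup G]

theorem p3_five (h : JD t u g w x L 5) (T : TD t x 5 Θ) (s : SA t 5 Θ a b) : P3 G 7 11 19 := by
  have n := h.SA5 T s
  have v0 : a t = (1 : ℤ) := by simp [s.va]
  have v1 : ∀ e, b 0 e t = (-5 : ℤ) := fun e => by rw [s.vb]; simp [xs]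
  obtain ⟨A, a1, dA⟩ := h.dg s.ia s.a1 v0
  obtain ⟨B, b1, dB⟩ := h.dg (s.ib 0 true) (s.b1 _ _) (v1 _)
  obtain ⟨C, c1, dC⟩ := h.dg (s.ib 0 false) (s.b1 _ _) (v1 _)
  have e0 := J5.eqZ s.ia (s.ib 0 true) (s.ib 0 false) a1 b1 c1 v0 (v1 _) (v1 _) (by rw [← s.eq, T.cz0 h])
  have s0 := T.s0 h (s.eq 0) a1 b1 c1
  have cG : (Nat.card G : ℤ) = 175560 := by rw [h.card_G5, n]; rfl
  have d := dA.dv
  have m8 := dA.m8
  have f := dA.fa
  rw [n] at d e0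
  have bc : B + C = -1 - A := by omega
  have e1 : (743 * A + 1463) * (B * C) = 36575 * A * (A + 1) := by
    push_cast at e0; linear_combination e0 - 36575 * A * bc
  obtain rfl : A = 209 := by
    have : A.natAbs ∈ Nat.divisors 1463 := Nat.mem_divisors.2 ⟨by simpa using Int.natAbs_dvd_natAbs.2 d, by simp⟩
    rw [show Nat.divisors 1463 = {1, 7, 11, 19, 77, 133, 209, 1463} by decide +kernel] at this
    simp only [Finset.mem_insert, Finset.mem_singleton] at this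
    generalize B * C = P at e1
    rcases show A = -7 ∨ A = 209 ∨ A = -1463 by omega with rfl | rfl | rfl <;> omega
  obtain ⟨e, b1, c1⟩ : ∃ e, b 0 e 1 = (-77 : ℤ) ∧ b 0 (!e) 1 = (-133 : ℤ) := by
    obtain rfl : C = -210 - B := by omega
    rcases mul_eq_zero.1 (show (B + 77) * (B + 133) = 0 by linarith) with e | e
    · exact ⟨true, by rw [b1, show B = -77 by omega], by rw [Bool.not_true, c1, show B = -77 by omega]; rfl⟩
    · exact ⟨false, by rw [c1, show B = -133 by omega]; rfl, by rw [Bool.not_false, b1, show B = -133 by omega]⟩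
  have za : ∀ {p : ℕ} {y : G}, p.Prime → ¬ (p : ℤ) ∣ 840 → p ∣ orderOf y → a y = 0 := fun hp k =>
    dz s.ia hp a1 k (by rw [cG]; decide)
  have zb : ∀ {p : ℕ} {y : G}, p.Prime → ¬ (p : ℤ) ∣ 2280 → p ∣ orderOf y → b 0 e y = 0 := fun hp k =>
    dz (s.ib _ _) hp b1 k (by rw [cG]; decide)
  have zc : ∀ {p : ℕ} {y : G}, p.Prime → ¬ (p : ℤ) ∣ 1320 → p ∣ orderOf y → b 0 (!e) y = 0 := fun hp k =>
    dz (s.ib _ _) hp c1 k (by rw [cG]; decide)
  have p7 : Nat.Prime 7 := by norm_num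
  have p11 : Nat.Prime 11 := by norm_num
  have p19 : Nat.Prime 19 := by norm_num
  exact ⟨p7, p11, p19, by decide, by decide, by decide,
    fun y o d e => no0 T s 0 _ o (za p11 (by decide) e) (zb p7 (by decide) d) (zc p7 (by decide) d),
    fun y o d e => no0 T s 0 _ o (za p19 (by decide) e) (zb p7 (by decide) d) (zc p7 (by decide) d),
    fun y o d e => no0 T s 0 _ o (za p11 (by decide) d) (zb p11 (by decide) d) (zc p19 (by decide) e)⟩

theorem p3_ree (h : JD t u g w x L Q) (bg : 27 ≤ |Q|) (T : TD t x Q Θ) {Ξ : Fin 4 → G → ℂ} (X : XD t Q Θ Ξ)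
    (S : SA t Q Θ a b) {k : ℕ} {s : ℤ} (hs : s = 3 ^ k) (hQ : Q = -3 * s ^ 2)
    (n : (C1[t].index : ℤ) = Q ^ 2 * (Q ^ 2 + Q + 1)) {p r : ℕ} (hp : p.Prime) (hr : r.Prime)
    (dp : (p : ℤ) ∣ 3 * s ^ 2 + 3 * s + 1) (dr : (r : ℤ) ∣ 3 * s ^ 2 - 3 * s + 1) : P3 G 3 p r := by
  obtain ⟨a1, ⟨e, b1, c1⟩, B, C, b2, c2, e1, e2⟩ := sa_deg h bg T X S
  have cG : (Nat.card G : ℤ) = -Q ^ 3 * (Q ^ 2 - 1) * (Q ^ 2 + Q + 1) := by
    have c := h.card
    have q0 : 0 ≤ 3 * s ^ 2 := by positivity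
    have q1 : 1 ≤ Q.natAbs ^ 2 := Nat.one_le_pow _ _ (Int.natAbs_pos.2 (by rintro rfl; simp at bg))
    zify [q1] at c
    rw [← C1[t].card_mul_index, h.card_C, Nat.cast_mul, n]
    push_cast
    rw [c, abs_of_nonpos (by linarith)]; ring
  have m : Q ^ 2 + Q + 1 = (3 * s ^ 2 + 3 * s + 1) * (3 * s ^ 2 - 3 * s + 1) := by rw [hQ]; ring
  have ev : Even (s * (s + 1)) := Int.even_mul_succ_self s
  -- a prime dividing `Q ^ 2 + Q + 1`
  have nd : ∀ {p : ℕ}, p.Prime → (p : ℤ) ∣ Q ^ 2 + Q + 1 → p ≠ 2 ∧ ¬ (p : ℤ) ∣ 2 * Q ^ 3 * (Q ^ 2 - 1) := by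
    intro p hp d
    have pp := Nat.prime_iff_prime_int.1 hp
    have u : ¬ (p : ℤ) ∣ 1 := pp.not_dvd_one
    have n0 : ¬ (p : ℤ) ∣ Q := fun e => u (by simpa using d.sub (e.mul_left (Q + 1)) |>.trans (by ring_nf; rfl))
    have p2 : ¬ (p : ℤ) ∣ 2 := fun e => by
      obtain rfl : p = 2 := (Nat.prime_dvd_prime_iff_eq hp Nat.prime_two).1 (by exact_mod_cast e)
      obtain ⟨c, hc⟩ := Int.even_mul_succ_self Q
      obtain ⟨j, hj⟩ := d
      push_cast at hj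
      have : Q ^ 2 + Q = c + c := by linarith
      omega
    refine ⟨fun e => p2 (by simp [e]), fun e => ?_⟩
    rcases pp.dvd_or_dvd e with e | e
    · exact (pp.dvd_or_dvd e).elim p2 fun e => n0 (pp.dvd_of_dvd_pow e)
    rcases pp.dvd_or_dvd (e.trans (dvd_of_eq (by ring : _ = (Q + 1) * (Q - 1)))) with e | e
    · exact u ((d.sub (e.mul_left Q)).trans (dvd_of_eq (by ring)))
    · exact n0 (by
        have : (p : ℤ) ∣ 3 := (d.sub (e.mul_left (Q + 2))).trans (dvd_of_eq (by ring))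
        rw [hQ]; exact (dvd_neg.2 this).mul_right _)
  have dp' := nd hp (m ▸ dp.mul_right _)
  have dr' := nd hr (m ▸ dr.mul_left _)
  have za : ∀ {p : ℕ} {y : G}, p.Prime → ¬ (p : ℤ) ∣ 2 * Q ^ 3 * (Q ^ 2 - 1) → p ∣ orderOf y → a y = 0 :=
    fun hp k => dz S.ia hp a1 k ⟨2, by rw [cG]; ring⟩
  have zb : ∀ {p : ℕ} {y : G}, p.Prime → ¬ (p : ℤ) ∣ 2 * Q ^ 3 * (Q ^ 2 - 1) → p ∣ orderOf y → b 0 e y = 0 :=
    fun hp k => dz (S.ib _ _) hp b1 k ⟨-2 * Q, by rw [cG]; ring⟩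
  have zc : ∀ {y : G}, 3 ∣ orderOf y → b 0 (!e) y = 0 :=
    dz (S.ib _ _) Nat.prime_three c1 (k := (Q ^ 2 - 1) * (Q ^ 2 + Q + 1)) (fun e => by
      have : (3 : ℤ) ∣ -1 := (e.sub (Dvd.intro (-s ^ 2 * (Q ^ 3 + Q ^ 2 - 1)) rfl)).trans
        (dvd_of_eq (by rw [hQ]; push_cast; ring))
      omega) ⟨1, by rw [cG]; ring⟩
  refine ⟨Nat.prime_three, hp, hr, by decide, dp'.1, dr'.1,
    fun y o d e => no0 T S 0 _ o (za hp dp'.2 e) (zb hp dp'.2 e) (zc d),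
    fun y o d e => no0 T S 0 _ o (za hr dr'.2 e) (zb hr dr'.2 e) (zc d), fun y o d d' => ?_⟩
  have cp : ∀ {p : ℕ}, p.Prime → ¬ (p : ℤ) ∣ 2 * Q ^ 3 * (Q ^ 2 - 1) → ∀ {c : ℤ}, (p : ℤ) ∣ c + 6 * s ∨
      (p : ℤ) ∣ c - 6 * s → ¬ (p : ℤ) ∣ 2 * Q ^ 3 * (Q ^ 2 - 1) * c := fun {p} hp n c o e => by
    refine n (((Nat.prime_iff_prime_int.1 hp).dvd_or_dvd e).elim id fun e => ?_)
    have : (p : ℤ) ∣ 6 * s := by
      rcases o with o | o
      · simpa using o.sub e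
      · simpa using e.sub o
    exact this.trans ⟨-s * Q ^ 2 * (Q ^ 2 - 1), by rw [hQ]; ring⟩
  have z1 : ∀ {γ : G → ℂ} {B : ℤ}, IsSIrr G γ → γ 1 = B → 2 * B = -(Q + 1) * s * (3 * s ^ 2 + 3 * s + 1) →
      γ y = 0 := fun i b e => dz i hp b (cp hp dp'.2 (c := 3 * s ^ 2 - 3 * s + 1) (.inl (dp.trans (dvd_of_eq (by ring)))))
    ⟨s * (Q + 1), by rw [cG, m]; linear_combination Q ^ 3 * (Q ^ 2 - 1) * (3 * s ^ 2 - 3 * s + 1) * e⟩ d
  have z2 : ∀ {γ : G → ℂ} {B : ℤ}, IsSIrr G γ → γ 1 = B → 2 * B = (Q + 1) * s * (3 * s ^ 2 - 3 * s + 1) →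
      γ y = 0 := fun i b e => dz i hr b (cp hr dr'.2 (c := 3 * s ^ 2 + 3 * s + 1) (.inr (dr.trans (dvd_of_eq (by ring)))))
    ⟨-s * (Q + 1), by rw [cG, m]; linear_combination Q ^ 3 * (Q ^ 2 - 1) * (3 * s ^ 2 + 3 * s + 1) * e⟩ d'
  have e3 : (B - C - s * (Q ^ 2 - 1)) * (B - C + s * (Q ^ 2 - 1)) = 0 := by
    have : -Q * (Q ^ 2 - 1) ^ 2 = 3 * (s * (Q ^ 2 - 1)) ^ 2 := by nth_rw 1 [hQ]; ring
    linarith
  rcases mul_eq_zero.1 e3 with e | e
  · exact no0 T S 1 true o (za hp dp'.2 d) (z1 (S.ib _ _) b2 (by rw [hQ] at *; linarith))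
      (z2 (S.ib _ _) c2 (by rw [hQ] at *; linarith))
  · exact no0 T S 1 true o (za hp dp'.2 d) (z2 (S.ib _ _) b2 (by rw [hQ] at *; linarith))
      (z1 (S.ib _ _) c2 (by rw [hQ] at *; linarith))

theorem ex_prime {m : ℤ} {e d : ℕ} (e0 : 0 < e) (lt : (e : ℤ) < m) (h : m ∣ e * d) :
    ∃ p : ℕ, p.Prime ∧ (p : ℤ) ∣ m ∧ p ∣ d := by
  lift m to ℕ using by omega
  by_contra n
  have c : m.Coprime d := Nat.coprime_of_dvd fun p hp a b => n ⟨p, hp, by exact_mod_cast a, b⟩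
  have := Nat.le_of_dvd e0 (c.dvd_of_dvd_mul_right (by exact_mod_cast h))
  omega

theorem pw4 {z : ℕ} (h : 9 ≤ z) : 27 * z ^ 3 ≤ 4 ^ z := by
  induction z, h using Nat.le_induction with
  | base => norm_num
  | succ z h ih => rw [pow_succ 4]; nlinarith [Nat.mul_le_mul h h, Nat.zero_le z]

omit [Fintype G] in
/-- no solvable subgroup has order divisible by the number of involutions up to a small factor -/
theorem no_tr [Finite G] (h : JR' S t L ⊥) {D : Subgroup G} (hs : Group.IsSolvable D) {e : ℕ} (e0 : 0 < e)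
    (he : 2 ^ e ≤ Nat.card L) (hd : C1[t].index ∣ e * Nat.card D) : False := by
  obtain ⟨u, g, w, x, Q, h⟩ := JS.exists_jd h
  have := Fintype.ofFinite G
  obtain ⟨Θ, T⟩ := h.td
  have s := h.shape (fun c => h.h_gt (c.is_comm.comm g t)) T
  have c := h.card
  by_cases n : Commute g x
  · have o := h.ord
    have q3 := h.q3
    rw [h.jh2 n, orderOf_one] at o
    obtain rfl : Q = 5 := by omega
    obtain ⟨a, b, s⟩ := s.resolve_right fun ⟨_, _, s⟩ => h.not_SB T s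
    have e5 : e ≤ 5 := by
      by_contra k
      have := Nat.pow_le_pow_right (show 0 < 2 by decide) (show 6 ≤ e by omega)
      have : 2 * Nat.card L = 120 := c
      omega
    rw [h.SA5 T s] at hd
    have k : ∀ p : ℕ, p.Prime → 5 < p → p ∣ 1463 → p ∣ Nat.card D := fun p hp l d =>
      ((Nat.Prime.dvd_mul hp).1 (d.trans hd)).resolve_left fun d => by have := Nat.le_of_dvd e0 d; omega
    exact (p3_five h T s).no hs (k _ (by norm_num) (by decide) (by decide)) (k _ (by norm_num) (by decide) (by decide))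
      (k _ (by norm_num) (by decide) (by decide))
  obtain ⟨Ξ, X⟩ := h.xd (fun a ha a1 => h.jh1 n ha a1) n T
  obtain ⟨a, b, s⟩ := s.resolve_right fun ⟨_, _, s⟩ => JE.sb_main JE.ar4' h (JE.big h n) T X s
  obtain ⟨ix, k, k1, hQ⟩ := JE.sa_main JE.ar2' h (JE.big h n) T X s
  obtain ⟨z, hz⟩ : ∃ z : ℕ, z = 3 ^ k := ⟨_, rfl⟩
  have z3 : 3 ≤ z := hz ▸ Nat.le_self_pow (by omega) 3
  have hQ' : Q = -3 * (z : ℤ) ^ 2 := by rw [hQ, hz]; push_cast; ring
  have el : e < 2 * z ^ 2 := by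
    have q : Q.natAbs = 3 * z ^ 2 := by rw [hQ']; zify; simp [abs_mul]
    have := pw4 (z := z ^ 2) (by nlinarith)
    rw [q] at c
    refine (Nat.pow_lt_pow_iff_right (show 1 < 2 by decide)).1 (he.trans_lt ?_)
    have l : 3 * z ^ 2 * ((3 * z ^ 2) ^ 2 - 1) ≤ 27 * (z ^ 2) ^ 3 :=
      (Nat.mul_le_mul_left _ (Nat.sub_le _ _)).trans_eq (by ring)
    have p : 0 < 4 ^ z ^ 2 := by positivity
    rw [pow_mul, show 2 ^ 2 = 4 from rfl]; omega
  have hd' : Q ^ 2 * ((3 * z ^ 2 + 3 * z + 1) * (3 * z ^ 2 - 3 * z + 1)) ∣ (e * Nat.card D : ℤ) := by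
    rw [show (3 * z ^ 2 + 3 * z + 1) * (3 * z ^ 2 - 3 * z + 1) = Q ^ 2 + Q + 1 by rw [hQ']; ring, ← ix]
    exact_mod_cast hd
  have el' : (e : ℤ) < 2 * z ^ 2 := by exact_mod_cast el
  have z3' : (3 : ℤ) ≤ z := by exact_mod_cast z3
  obtain ⟨p, hp, p1, p2⟩ := ex_prime e0 (m := 3 * z ^ 2 + 3 * z + 1) (by nlinarith)
    (((dvd_mul_right _ _).mul_left _).trans hd')
  obtain ⟨r, hr, r1, r2⟩ := ex_prime e0 (m := 3 * z ^ 2 - 3 * z + 1) (by nlinarith)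
    (((dvd_mul_left _ _).mul_left _).trans hd')
  obtain ⟨l, hl, l1, l2⟩ := ex_prime e0 (m := -Q) (by nlinarith)
    ((neg_dvd.2 ((dvd_pow_self Q two_ne_zero).mul_right _)).trans hd')
  obtain rfl : l = 3 := by
    rw [hQ, neg_neg] at l1
    exact (Nat.prime_dvd_prime_iff_eq hl Nat.prime_three).1 (hl.dvd_of_dvd_pow (by exact_mod_cast l1))
  exact (p3_ree h (JE.big h n) T X s (k := k) (by rw [hz]; push_cast; rfl) hQ' ix hp hr p1 r1).no hs l2 p2 r2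

end Cfsg.Agent.WA.NJ
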